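import Mathlib.GroupTheory.SpecificGroups.Alternating
import Mathlib.GroupTheory.Perm.Fin
import Mathlib.Tactic

/-! Elements of alternating groups used to bound the alternating sections of the groups of type F4. -/

set_option autoImplicit false

namespace CfsgLib.F4AltSection

/-- Extend even permutations of the first `n` points. -/
theorem exists_altHom {n r : ℕ} (h : n ≤ r) :
    ∃ φ : ↥(alternatingGroup (Fin n)) →* ↥(alternatingGroup (Fin r)), Function.Injective φ := by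
  classical
  let e : Fin n ≃ Subtype fun i : Fin r => (i : ℕ) < n :=
    ⟨fun i => ⟨⟨i, by omega⟩, i.2⟩, fun i => ⟨i.1, i.2⟩, fun i => rfl, fun i => rfl⟩
  refine ⟨((Equiv.Perm.extendDomainHom e).comp (alternatingGroup (Fin n)).subtype).codRestrict _
    fun p => Equiv.Perm.mem_alternatingGroup.mpr ?_, fun p q h' => ?_⟩
  · show Equiv.Perm.sign (Equiv.Perm.extendDomain (p : Equiv.Perm (Fin n)) e) = 1
    rw [Equiv.Perm.sign_extendDomain]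
    exact Equiv.Perm.mem_alternatingGroup.mp p.2
  · exact Subtype.ext (Equiv.Perm.extendDomainHom_injective e (congrArg Subtype.val h'))

/-- In degree eleven an element of order eleven is conjugate to its cube. -/
theorem exists_eleven {r : ℕ} (hr : 11 ≤ r) :
    ∃ s c : ↥(alternatingGroup (Fin r)), orderOf s = 11 ∧ c * s * c⁻¹ = s ^ 3 := by
  haveI : Fact (Nat.Prime 11) := ⟨by norm_num⟩
  let s₀ : Equiv.Perm (Fin 11) := finRotate 11
  let c₀ : Equiv.Perm (Fin 11) := ⟨fun i => 3 * i, fun i => 4 * i, by decide, by decide⟩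
  have h : Equiv.Perm.sign s₀ = 1 ∧ Equiv.Perm.sign c₀ = 1 ∧ c₀ * s₀ * c₀⁻¹ = s₀ ^ 3 ∧
      s₀ ^ 11 = 1 ∧ s₀ ≠ 1 := by decide +kernel
  obtain ⟨h1, h2, h3, h4, h5⟩ := h
  obtain ⟨φ, hφ⟩ := exists_altHom hr
  let s : ↥(alternatingGroup (Fin 11)) := ⟨s₀, Equiv.Perm.mem_alternatingGroup.mpr h1⟩
  let c : ↥(alternatingGroup (Fin 11)) := ⟨c₀, Equiv.Perm.mem_alternatingGroup.mpr h2⟩
  refine ⟨φ s, φ c, ?_, ?_⟩
  · rw [orderOf_injective φ hφ, ← Subgroup.orderOf_coe]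
    exact orderOf_eq_prime h4 h5
  · rw [← map_inv, ← map_mul, ← map_mul, ← map_pow]
    exact congrArg φ (Subtype.ext h3)

/-- In degree twelve there are commuting elements of orders five and seven, the first conjugate to
its square and the second conjugate to its square in the centraliser of the first. -/
theorem exists_twelve {r : ℕ} (hr : 12 ≤ r) :
    ∃ a b x y : ↥(alternatingGroup (Fin r)), orderOf a = 5 ∧ orderOf b = 7 ∧ a * b = b * a ∧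
      a * y = y * a ∧ y ^ 3 = 1 ∧ x * a * x⁻¹ = a ^ 2 ∧ y * b * y⁻¹ = b ^ 2 := by
  haveI : Fact (Nat.Prime 5) := ⟨by norm_num⟩
  haveI : Fact (Nat.Prime 7) := ⟨by norm_num⟩
  let a₀ : Equiv.Perm (Fin 12) := ⟨![1, 2, 3, 4, 0, 5, 6, 7, 8, 9, 10, 11],
    ![4, 0, 1, 2, 3, 5, 6, 7, 8, 9, 10, 11], by decide, by decide⟩
  let x₀ : Equiv.Perm (Fin 12) := ⟨![0, 2, 4, 1, 3, 6, 5, 7, 8, 9, 10, 11],
    ![0, 3, 1, 4, 2, 6, 5, 7, 8, 9, 10, 11], by decide, by decide⟩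
  let b₀ : Equiv.Perm (Fin 12) := ⟨![0, 1, 2, 3, 4, 6, 7, 8, 9, 10, 11, 5],
    ![0, 1, 2, 3, 4, 11, 5, 6, 7, 8, 9, 10], by decide, by decide⟩
  let y₀ : Equiv.Perm (Fin 12) := ⟨![0, 1, 2, 3, 4, 5, 7, 9, 11, 6, 8, 10],
    ![0, 1, 2, 3, 4, 5, 9, 6, 10, 7, 11, 8], by decide, by decide⟩
  have h : (Equiv.Perm.sign a₀ = 1 ∧ Equiv.Perm.sign x₀ = 1 ∧ Equiv.Perm.sign b₀ = 1 ∧
      Equiv.Perm.sign y₀ = 1) ∧ x₀ * a₀ * x₀⁻¹ = a₀ ^ 2 ∧ y₀ * b₀ * y₀⁻¹ = b₀ ^ 2 ∧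
      a₀ * b₀ = b₀ * a₀ ∧ a₀ * y₀ = y₀ * a₀ ∧ y₀ ^ 3 = 1 ∧
      (a₀ ^ 5 = 1 ∧ a₀ ≠ 1) ∧ (b₀ ^ 7 = 1 ∧ b₀ ≠ 1) := by decide +kernel
  obtain ⟨⟨h1, h2, h3, h4⟩, hxa, hyb, hab, hay, hy3, ⟨ha5, ha1⟩, hb7, hb1⟩ := h
  obtain ⟨φ, hφ⟩ := exists_altHom hr
  let a : ↥(alternatingGroup (Fin 12)) := ⟨a₀, Equiv.Perm.mem_alternatingGroup.mpr h1⟩
  let x : ↥(alternatingGroup (Fin 12)) := ⟨x₀, Equiv.Perm.mem_alternatingGroup.mpr h2⟩
  let b : ↥(alternatingGroup (Fin 12)) := ⟨b₀, Equiv.Perm.mem_alternatingGroup.mpr h3⟩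
  let y : ↥(alternatingGroup (Fin 12)) := ⟨y₀, Equiv.Perm.mem_alternatingGroup.mpr h4⟩
  refine ⟨φ a, φ b, φ x, φ y, ?_, ?_, ?_, ?_, ?_, ?_, ?_⟩
  · rw [orderOf_injective φ hφ, ← Subgroup.orderOf_coe]
    exact orderOf_eq_prime ha5 ha1
  · rw [orderOf_injective φ hφ, ← Subgroup.orderOf_coe]
    exact orderOf_eq_prime hb7 hb1
  · rw [← map_mul, ← map_mul]
    exact congrArg φ (Subtype.ext hab)
  · rw [← map_mul, ← map_mul]
    exact congrArg φ (Subtype.ext hay)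
  · rw [← map_pow, ← map_one φ]
    exact congrArg φ (Subtype.ext hy3)
  · rw [← map_inv, ← map_mul, ← map_mul, ← map_pow]
    exact congrArg φ (Subtype.ext hxa)
  · rw [← map_inv, ← map_mul, ← map_mul, ← map_pow]
    exact congrArg φ (Subtype.ext hyb)

end CfsgLib.F4AltSection
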