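import Cfsg.Agent.F4AltSection.WeylSearch
import Cfsg.Agent.F4AltSection.Torus

/-!
The group of type F4 with `5` and `7` dividing `q - 1` has no commuting elements of orders five and
seven whose automizer contains a scaling by two on each, fixing the first in the second case.
-/

set_option autoImplicit false

namespace CfsgLib.F4AltSection

open Cfsg.Lie CfsgLib.Chevalley

local notation "S" => sysF4

theorem card_weyl (F : Type*) [Field F] : (Sys.wSet S (List.range 4)).card = 1152 := by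
  have h := lenSumF4 F 1
  simp only [Sys.lenSum, one_pow, Finset.sum_const, nsmul_eq_mul, mul_one] at h
  have h' := h.trans (show _ = ((1152 : ℕ) : ℤ) by rfl)
  exact_mod_cast h'

variable {F : Type*} [Field F] [Fintype F]

theorem five_seven (h5 : 5 ∣ Fintype.card F - 1) (h7 : 7 ∣ Fintype.card F - 1)
    {z w x y : ↥(chevF4.group F)} (hz : orderOf z = 5) (hw : orderOf w = 7)
    (hzw : z * w = w * z) (hx : x * z * x⁻¹ = z ^ 2) (hy : y * z * y⁻¹ = z)
    (hy' : y * w * y⁻¹ = w ^ 2) : False := by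
  classical
  haveI : Fact (Nat.Prime 5) := ⟨by norm_num⟩
  haveI : Fact (Nat.Prime 7) := ⟨by norm_num⟩
  have hcard : (Sys.wSet S (List.range chevF4.rank)).card = 1152 := card_weyl F
  have hW5 : ¬ 5 ∣ (Sys.wSet S (List.range chevF4.rank)).card := by rw [hcard]; norm_num
  have hW7 : ¬ 7 ∣ (Sys.wSet S (List.range chevF4.rank)).card := by rw [hcard]; norm_num
  obtain ⟨g₁, hg₁⟩ := exists_toral S h5 hW5 (P := Subgroup.zpowers z)
    (IsPGroup.of_card (n := 1) (by rw [Nat.card_zpowers, hz, pow_one]))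
  set t₀ := g₁ * z * g₁⁻¹ with ht₀
  set A := Subgroup.centralizer ({t₀} : Set ↥(chevF4.group F)) with hA
  set T' := (chevF4.diagonalSubgroup F).subgroupOf (chevF4.group F) with hT'
  have hTA : T' ≤ A := fun a ha => Subgroup.mem_centralizer_singleton_iff.mpr
    (Subtype.ext (Sys.diagonal_comm S F ha (hg₁ z (Subgroup.mem_zpowers z))))
  have hwA : g₁ * w * g₁⁻¹ ∈ A := Subgroup.mem_centralizer_singleton_iff.mpr (by
    simp only [ht₀, ← MulAut.conj_apply, ← map_mul, hzw])
  have hidx : ¬ 7 ∣ (T'.subgroupOf A).index := fun hd => by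
    refine index_diagonal S h7 hW7 (hd.trans ?_)
    rw [← Subgroup.relIndex_mul_index hTA]
    exact dvd_mul_right _ _
  obtain ⟨g₂, hg₂⟩ := exists_conj_into (T'.subgroupOf A) hidx
    (P := Subgroup.zpowers (⟨_, hwA⟩ : ↥A)) (IsPGroup.of_card (n := 1) (by
      rw [Nat.card_zpowers, pow_one, ← Subgroup.orderOf_coe]
      show orderOf (g₁ * w * g₁⁻¹) = 7
      rw [← MulAut.conj_apply, MulEquiv.orderOf_eq, hw]))
  set g : ↥(chevF4.group F) := (g₂ : ↥(chevF4.group F)) * g₁ with hg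
  let κ : ↥(chevF4.group F) →* GL chevF4.Idx F :=
    (chevF4.group F).subtype.comp (MulAut.conj g).toMonoidHom
  have hκinj : Function.Injective κ := Subtype.val_injective.comp (MulAut.conj g).injective
  have htd : κ z ∈ chevF4.diagonalSubgroup F := by
    have h := hg₁ z (Subgroup.mem_zpowers z)
    have h2 : (g₂ : ↥(chevF4.group F)) * t₀ = t₀ * g₂ :=
      (Subgroup.mem_centralizer_singleton_iff.mp g₂.2)
    have : MulAut.conj g z = t₀ := by
      rw [MulAut.conj_apply, hg]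
      calc (g₂ : ↥(chevF4.group F)) * g₁ * z * ((g₂ : ↥(chevF4.group F)) * g₁)⁻¹
          = g₂ * t₀ * (g₂ : ↥(chevF4.group F))⁻¹ := by rw [ht₀]; group
        _ = t₀ := by rw [h2, mul_inv_cancel_right]
    show ((MulAut.conj g z : ↥(chevF4.group F)) : GL chevF4.Idx F) ∈ _
    rw [this]
    exact h
  have hud : κ w ∈ chevF4.diagonalSubgroup F := by
    have h := hg₂ _ (Subgroup.mem_zpowers _)
    rw [Subgroup.mem_subgroupOf, hT', Subgroup.mem_subgroupOf] at h
    simpa [κ, hg, mul_assoc] using h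
  have hex : ∀ (v : ↥(chevF4.group F)), ∃ n : ↥(chevF4.monomialSubgroup F),
      ∀ (a b : ↥(chevF4.group F)), v * a * v⁻¹ = b → κ a ∈ chevF4.diagonalSubgroup F →
        κ b ∈ chevF4.diagonalSubgroup F →
          (n : GL chevF4.Idx F) * κ a * (n : GL chevF4.Idx F)⁻¹ = κ b := by
    intro v
    obtain ⟨n, hn⟩ := exists_monomial_conj S (MulAut.conj g v).2
    refine ⟨n, fun a b hab ha hb => ?_⟩
    have e : κ v * κ a * (κ v)⁻¹ = κ b := by rw [← map_inv, ← map_mul, ← map_mul, hab]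
    rw [← hn (κ a) ha (show κ v * κ a * (κ v)⁻¹ ∈ _ from e ▸ hb)]
    exact e
  obtain ⟨n₀, hn₀⟩ := hex x
  obtain ⟨n', hn'⟩ := hex y
  have e₀ := hn₀ _ _ hx htd (by rw [map_pow]; exact pow_mem htd 2)
  have e₁ := hn' _ _ hy htd htd
  have e₂ := hn' _ _ hy' hud (by rw [map_pow]; exact pow_mem hud 2)
  rw [map_pow] at e₀ e₂
  obtain ⟨c, hc⟩ := (Sys.diagonal_eq S (F := F)) ▸ htd
  rw [← hc] at e₀ e₁
  rw [← map_pow] at e₀
  set V : ℕ → Fˣ := torusVal chevF4 c with hV
  have hVpow : ∀ (k : ℕ) (s : ℕ), torusVal chevF4 (c ^ k) s = V s ^ k := fun k s => by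
    simp only [hV, torusVal, Pi.pow_apply, ← Finset.prod_pow]
    refine Finset.prod_congr rfl fun j _ => ?_
    rw [← zpow_natCast, ← zpow_natCast (c j ^ _), ← zpow_mul, ← zpow_mul, mul_comm]
  have hord : orderOf (tor chevF4 F c) = 5 := by rw [hc, orderOf_injective κ hκinj, hz]
  have hV5 : ∀ s : Fin chevF4.nroots, V s ^ 5 = 1 := fun s => by
    have h : tor chevF4 F (c ^ 5) = 1 := by rw [map_pow, ← hord, pow_orderOf_eq_one]
    have h' := congrArg (fun M : GL chevF4.Idx F =>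
      (M : Matrix chevF4.Idx chevF4.Idx F) (Sum.inr s) (Sum.inr s)) h
    simp only [Sys.tor_val S, dg, Matrix.diagonal_apply_eq, Sum.elim_inr, Units.val_one,
      Matrix.one_apply_eq, hVpow] at h'
    exact Units.ext (by simpa using h')
  obtain ⟨m₀, hm₀⟩ : ∃ m : Fin 4, V (chevF4.simple m) ≠ 1 := by
    by_contra h
    push Not at h
    rw [Sys.tor_eq_one_of_simple S F c (fun i hi => by
      rw [← hV, h ⟨i, hi⟩, Units.val_one]), orderOf_one] at hord
    norm_num at hord
  set ζ := V (chevF4.simple m₀) with hζ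
  have hζ5 : orderOf ζ = 5 := orderOf_eq_prime (hV5 (sf m₀)) hm₀
  have hroots : Subgroup.zpowers ζ = rootsOfUnity 5 F :=
    IsPrimitiveRoot.zpowers_eq (hζ5 ▸ IsPrimitiveRoot.orderOf ζ)
  have hlog : ∀ s : Fin chevF4.nroots, ∃ e : ℤ, ζ ^ e = V s := fun s => by
    rw [← Subgroup.mem_zpowers_iff, hroots, mem_rootsOfUnity]
    exact hV5 s
  choose e he using hlog
  set f : Fin chevF4.nroots → ZMod 5 := fun s => (e s : ZMod 5) with hf
  have hcmp : ∀ a b : ℤ, ζ ^ a = ζ ^ b → (a : ZMod 5) = b := fun a b h => by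
    rw [zpow_eq_zpow_iff_modEq, hζ5] at h
    exact (ZMod.intCast_eq_intCast_iff a b 5).mpr h
  have hlin : ∀ s : Fin chevF4.nroots,
      f s = ∑ m : Fin 4, (Sys.vec S m s : ZMod 5) * f (sf m) := fun s => by
    simp only [hf, ← Int.cast_mul, ← Int.cast_sum]
    refine hcmp _ _ ?_
    rw [he, hV, torusVal_vec S c s.isLt, Finset.prod_range]
    refine Eq.trans ?_ (prod_zpow_sum ζ Finset.univ _).symm
    refine Finset.prod_congr rfl fun m _ => ?_
    rw [mul_comm, zpow_mul, he]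
    rfl
  have hne : ∃ m : Fin 4, f (sf m) ≠ 0 := by
    refine ⟨m₀, fun h => hm₀ ?_⟩
    simp only [hf, ZMod.intCast_zmod_eq_zero_iff_dvd] at h
    obtain ⟨k, hk⟩ := h
    have := he (sf m₀)
    rw [hk, zpow_mul, zpow_natCast, ← hζ5, pow_orderOf_eq_one, one_zpow] at this
    exact this.symm
  obtain ⟨L, hL⟩ := Sys.exists_wperm S F n₀
  obtain ⟨L', hL'⟩ := Sys.exists_wperm S F n'
  have h3 : ∀ s, f (Sys.wperm S L s) = 3 * f s := fun s => by
    have h := torusVal_perm S n₀ e₀ s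
    rw [hVpow, hL] at h
    have h' := hcmp (e (Sys.wperm S L s) * 2) (e s) (by rw [zpow_mul, he, he]; exact h)
    simp only [hf]
    rw [← h']
    push_cast
    have h50 : (5 : ZMod 5) = 0 := rfl
    linear_combination (-(e (Sys.wperm S L s) : ZMod 5)) * h50
  have h1 : ∀ s, f (Sys.wperm S L' s) = f s := fun s => by
    have h := torusVal_perm S n' e₁ s
    rw [hL'] at h
    exact hcmp _ _ (by rw [he, he]; exact h)
  have h8 := fix_pow_eight f hlin hne L L' h3 h1
  rw [← hL', ← map_pow, ← MonoidHom.mem_ker, Sys.ker_perm S, hSub, Subgroup.mem_subgroupOf,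
    SubmonoidClass.coe_pow] at h8
  have hiter : ∀ k : ℕ, (n' : GL chevF4.Idx F) ^ k * κ w * ((n' : GL chevF4.Idx F) ^ k)⁻¹ =
      κ w ^ 2 ^ k := by
    intro k
    induction k with
    | zero => simp
    | succ k ih =>
      calc (n' : GL chevF4.Idx F) ^ (k + 1) * κ w * ((n' : GL chevF4.Idx F) ^ (k + 1))⁻¹
          = n' * ((n' : GL chevF4.Idx F) ^ k * κ w * ((n' : GL chevF4.Idx F) ^ k)⁻¹) *
              (n' : GL chevF4.Idx F)⁻¹ := by rw [pow_succ']; group
        _ = _ := by rw [ih, ← conj_pow, e₂, ← pow_mul, ← pow_succ']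
  have h9 := hiter 8
  rw [Sys.diagonal_comm S F h8 hud, mul_inv_cancel_right, ← map_pow] at h9
  have h10 : w ^ 2 ^ 8 = w ^ 1 := by rw [pow_one]; exact (hκinj h9).symm
  rw [pow_eq_pow_iff_modEq, hw] at h10
  exact absurd h10 (by decide)

end CfsgLib.F4AltSection
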