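import Cfsg.Agent.F4AltSection.WeylDefs

/-! The certified search in the Weyl group of type F4. -/

set_option autoImplicit false

namespace CfsgLib.F4AltSection

theorem search : normList.all okPhi = true := by decide +kernel

theorem exists_norm : ∀ a b c d : ZMod 5, (a, b, c, d) ≠ (0, 0, 0, 0) → ∃ k : ZMod 5, k ≠ 0 ∧
    (((k * a).val, (k * b).val, (k * c).val, (k * d).val) : Phi) ∈ normList := by decide +kernel

end CfsgLib.F4AltSection
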