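import Cfsg.Agent.F4AltSection.WeylCheck
import Cfsg.Agent.Chevalley.Weights.F4

/-!
Soundness of the search: an element of the Weyl group of type F4 fixing a nonzero linear function on
roots mod 5 which another element multiplies by three has eighth power one.
-/

set_option autoImplicit false
set_option linter.style.longLine false

namespace CfsgLib.F4AltSection

open Cfsg.Lie CfsgLib.Chevalley

local notation "S" => sysF4

/-- The fundamental roots, indexed by `Fin 4`. -/
noncomputable abbrev sf (i : Fin 4) : Fin chevF4.nroots := Sys.simpleF S i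

theorem pairing_wperm {D : ChevalleyDatum} (S' : Sys D) (L : List (Fin D.rank))
    (r t : Fin D.nroots) : D.pairing (S'.wperm L r) (S'.wperm L t) = D.pairing r t := by
  induction L with
  | nil => rfl
  | cons i L ih =>
    rw [S'.wperm_cons, Equiv.Perm.mul_apply, Equiv.Perm.mul_apply, S'.srefl_val, S'.srefl_val,
      S'.pairing_w i.isLt (Fin.isLt _) (Fin.isLt _), ih]

theorem wperm_pow {D : ChevalleyDatum} (S' : Sys D) (L : List (Fin D.rank)) (k : ℕ) :
    ∃ M : List (Fin D.rank), S'.wperm L ^ k = S'.wperm M := by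
  induction k with
  | zero => exact ⟨[], rfl⟩
  | succ k ih => obtain ⟨M, hM⟩ := ih; exact ⟨M ++ L, by rw [pow_succ, hM, S'.wperm_append]⟩

theorem rv_wperm (L : List (Fin chevF4.rank)) (s : Fin chevF4.nroots) :
    rv (Sys.wperm S L s) = act ((Sys.wperm S L (sf 0) : ℕ),
      (Sys.wperm S L (sf 1) : ℕ), (Sys.wperm S L (sf 2) : ℕ),
      (Sys.wperm S L (sf 3) : ℕ)) (rv s) := by
  have h : ∀ j, j < 4 → tabF4.coord 4 j (Sys.wperm S L s) =
      ∑ m : Fin 4, tabF4.coord 4 m s * tabF4.coord 4 j (Sys.wperm S L (sf m)) :=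
    fun j hj => Sys.vec_wperm S L s j hj
  simp only [rv, act, Prod.mk.injEq]
  refine ⟨?_, ?_, ?_, ?_⟩
  · rw [h 0 (by norm_num), Fin.sum_univ_four]; rfl
  · rw [h 1 (by norm_num), Fin.sum_univ_four]; rfl
  · rw [h 2 (by norm_num), Fin.sum_univ_four]; rfl
  · rw [h 3 (by norm_num), Fin.sum_univ_four]; rfl

theorem rv_inj {a b : Fin chevF4.nroots} (h : rv a = rv b) : a = b := by
  simp only [rv, Prod.mk.injEq] at h
  refine Fin.ext (Sys.vec_inj S _ a.isLt _ b.isLt fun j hj => ?_)
  replace hj : j < 4 := hj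
  show tabF4.coord 4 j a = tabF4.coord 4 j b
  interval_cases j
  · exact h.1
  · exact h.2.1
  · exact h.2.2.1
  · exact h.2.2.2

theorem simpleF_sp (i : Fin 4) : (sf i : ℕ) = sp i := (sp_eq i).symm


/-- The main fact. -/
theorem fix_pow_eight (f : Fin chevF4.nroots → ZMod 5)
    (hf : ∀ s : Fin chevF4.nroots, f s = ∑ m : Fin 4, (Sys.vec S m s : ZMod 5) * f (sf m))
    (hne : ∃ m : Fin 4, f (sf m) ≠ 0) (L L' : List (Fin chevF4.rank))
    (h3 : ∀ s, f (Sys.wperm S L s) = 3 * f s) (h1 : ∀ s, f (Sys.wperm S L' s) = f s) :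
    Sys.wperm S L' ^ 8 = 1 := by
  obtain ⟨k, hk, hn⟩ := exists_norm (f (sf 0)) (f (sf 1))
    (f (sf 2)) (f (sf 3)) (by
      obtain ⟨m, hm⟩ := hne
      intro e
      simp only [Prod.mk.injEq] at e
      fin_cases m
      · exact hm e.1
      · exact hm e.2.1
      · exact hm e.2.2.1
      · exact hm e.2.2.2)
  set g : Fin chevF4.nroots → ZMod 5 := fun s => k * f s with hg
  set φ : Phi := ((g (sf 0)).val, (g (sf 1)).val, (g (sf 2)).val,
    (g (sf 3)).val) with hφ
  have hv : ∀ s : Fin chevF4.nroots, vmod φ s = (g s).val := by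
    intro s
    have h5 : vmod φ s < 5 := by simp only [hφ, vmod]; exact Nat.mod_lt _ (by norm_num)
    rw [← ZMod.val_natCast_of_lt h5]
    congr 1
    simp only [hφ, vmod, ZMod.natCast_mod, Nat.cast_add, Nat.cast_mul, ZMod.natCast_val,
      ZMod.cast_id', id]
    simp only [hg, hf s, Fin.sum_univ_four]
    have hvec : ∀ j : ℕ, (Sys.vec S j s : ZMod 5) = (tabF4.field 4 j s : ZMod 5) - 1 := fun j => by
      show ((tabF4.coord 4 j s : ℤ) : ZMod 5) = _
      simp only [Tab.coord, Int.cast_sub, Int.cast_natCast, Int.cast_ofNat]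
      rfl
    simp only [Fin.val_zero, Fin.val_one, Fin.val_two, hvec]
    rw [show ((3 : Fin 4) : ℕ) = 3 from rfl]
    push_cast
    have h50 : (5 : ZMod 5) = 0 := by decide
    linear_combination (k * f (sf 0) + k * f (sf 1) + k * f (sf 2) + k * f (sf 3)) * h50
  have hquad : ∀ (c : ℕ) (M : List (Fin chevF4.rank)),
      (∀ s, g (Sys.wperm S M s) = (c : ZMod 5) * g s) →
      (((Sys.wperm S M (sf 0) : ℕ), (Sys.wperm S M (sf 1) : ℕ),
        (Sys.wperm S M (sf 2) : ℕ), (Sys.wperm S M (sf 3) : ℕ)) : Phi) ∈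
          quads φ c := by
    intro c M hM
    have hc : ∀ i : Fin 4, (Sys.wperm S M (sf i) : ℕ) ∈ cand φ c i := fun i => by
      rw [cand, List.mem_filter, List.mem_range, beq_iff_eq]
      refine ⟨(Sys.wperm S M (sf i)).isLt, ?_⟩
      rw [hv, hM, ← simpleF_sp, hv, ZMod.val_mul, ZMod.val_natCast, Nat.mod_mul_mod]
    have hp : ∀ i j : Fin 4, comp i j (Sys.wperm S M (sf i))
        (Sys.wperm S M (sf j)) = true := fun i j => by
      have h : ∀ a b : Fin chevF4.nroots, pT (Sys.wperm S M a) (Sys.wperm S M b) = pT a b := by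
        intro a b
        have h1 := pT_eq (Sys.wperm S M a) (Sys.wperm S M b)
        have h2 := pT_eq a b
        rw [pairing_wperm S M a b] at h1
        omega
      simp only [comp, Bool.and_eq_true, beq_iff_eq, ← simpleF_sp, h, and_self]
    simp only [quads, List.mem_flatMap, List.mem_map, List.mem_filter, Bool.and_eq_true]
    exact ⟨_, hc 0, _, ⟨hc 1, hp 0 1⟩, _, ⟨hc 2, hp 0 2, hp 1 2⟩, _,
      ⟨hc 3, hp 0 3, hp 1 3, hp 2 3⟩, rfl⟩
  have hok : okPhi φ = true := by
    refine List.all_eq_true.mp search φ ?_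
    convert hn using 1
  have h3' := hquad 3 L fun s => by simp only [hg, h3]; push_cast; ring
  have h1' := hquad 1 L' fun s => by simp only [hg, h1]; simp
  rw [okPhi, Bool.or_eq_true, List.isEmpty_iff] at hok
  rcases hok with hok | hok
  · rw [hok] at h3'; simp at h3'
  have h8 := List.all_eq_true.mp hok _ h1'
  obtain ⟨M, hM⟩ := wperm_pow S L' 8
  rw [hM, show (1 : Equiv.Perm (Fin chevF4.nroots)) = Sys.wperm S [] from rfl]
  refine Sys.wperm_ext S fun m => ?_
  rw [← hM]
  show (Sys.wperm S L' ^ 8) (sf m) = sf m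
  refine rv_inj ?_
  simp only [pow_succ', pow_zero, Equiv.Perm.mul_apply, Equiv.Perm.one_apply, rv_wperm]
  simp only [fix8, List.all_eq_true, List.mem_range, beq_iff_eq] at h8
  have := h8 m m.isLt
  rw [← simpleF_sp m] at this
  exact this

end CfsgLib.F4AltSection
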